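import Cfsg.Agent.Lib.KnownSimple.U34ALab.Final
import Cfsg.Agent.Lib.KnownSimple.U34BLab.Final
import Cfsg.Agent.Lib.KnownSimple.U34CLab.Final

/-!
# A group with the words of the tables: it is perfect, with trivial multiplier
-/

set_option autoImplicit false

universe u

namespace Cfsg.Agent.Lib.KnownSimple.U34Lab

open Cfsg.Agent.Lib.KnownSimple.Lab Subgroup

/-- Perfectness and triviality of the multiplier. -/
theorem facts {X : Type u} [Group X] [Finite X] (g : ℕ → X)
    (hgi : ∀ a < 2, g (a + 2) = (g a)⁻¹) (hgen : closure (g '' {a | a < 2 * 2}) = ⊤)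
    (heq0 : ∀ w ∈ U34ALab.wordsL, wval g w = 1) (heq1 : ∀ w ∈ U34BLab.wordsL, wval g w = 1) (heq2 : ∀ w ∈ U34CLab.wordsL, wval g w = 1)
    (hcard : Nat.card X = 62400) :
    (∀ x : X, x ∈ commutator X) ∧
    ∀ (Γ : Type u) [Group Γ] [Finite Γ] (σ : Γ →* X), Cfsg.IsStemExtension σ → Nat.card σ.ker = 1 := by
  refine ⟨U34ALab.perfect_of g hgi hgen heq0, ?_⟩
  intro Γ _ _ σ hσ
  apply card_eq_one_of_primes
  intro r hr
  by_cases hc : r ≠ 3 ∧ r ≠ 5
  · apply U34ALab.notP g r hr _ hgi hgen heq0 hcard Γ σ hσ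
    intro p hp
    simp only [U34ALab.exclL, List.mem_cons, List.not_mem_nil, or_false] at hp
    rcases hp with rfl | rfl
    · exact hc.1
    · exact hc.2
  by_cases hc : r ≠ 2 ∧ r ≠ 5
  · apply U34BLab.notP g r hr _ hgi hgen heq1 hcard Γ σ hσ
    intro p hp
    simp only [U34BLab.exclL, List.mem_cons, List.not_mem_nil, or_false] at hp
    rcases hp with rfl | rfl
    · exact hc.1
    · exact hc.2
  have hc : r ≠ 2 ∧ r ≠ 3 := by
    omega
  apply U34CLab.notP g r hr _ hgi hgen heq2 hcard Γ σ hσ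
  intro p hp
  simp only [U34CLab.exclL, List.mem_cons, List.not_mem_nil, or_false] at hp
  rcases hp with rfl | rfl
  · exact hc.1
  · exact hc.2

end Cfsg.Agent.Lib.KnownSimple.U34Lab
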